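import Cfsg.Agent.H35.Fi24T.Y5V1.RTab

set_option autoImplicit false
set_option linter.all false
set_option Elab.async false

namespace Cfsg.Agent.H35

theorem y5v1_rchk_0 : allR y5v1_rf 39106 8 (0 * 2 ^ 8) = true := by decide +kernel
theorem y5v1_rchk_1 : allR y5v1_rf 39106 8 (1 * 2 ^ 8) = true := by decide +kernel
theorem y5v1_rchk_2 : allR y5v1_rf 39106 8 (2 * 2 ^ 8) = true := by decide +kernel
theorem y5v1_rchk_3 : allR y5v1_rf 39106 8 (3 * 2 ^ 8) = true := by decide +kernel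
theorem y5v1_rchk_4 : allR y5v1_rf 39106 8 (4 * 2 ^ 8) = true := by decide +kernel
theorem y5v1_rchk_5 : allR y5v1_rf 39106 8 (5 * 2 ^ 8) = true := by decide +kernel
theorem y5v1_rchk_6 : allR y5v1_rf 39106 8 (6 * 2 ^ 8) = true := by decide +kernel
theorem y5v1_rchk_7 : allR y5v1_rf 39106 8 (7 * 2 ^ 8) = true := by decide +kernel
theorem y5v1_rchk_8 : allR y5v1_rf 39106 8 (8 * 2 ^ 8) = true := by decide +kernel
theorem y5v1_rchk_9 : allR y5v1_rf 39106 8 (9 * 2 ^ 8) = true := by decide +kernel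
theorem y5v1_rchk_10 : allR y5v1_rf 39106 8 (10 * 2 ^ 8) = true := by decide +kernel
theorem y5v1_rchk_11 : allR y5v1_rf 39106 8 (11 * 2 ^ 8) = true := by decide +kernel
theorem y5v1_rchk_12 : allR y5v1_rf 39106 8 (12 * 2 ^ 8) = true := by decide +kernel
theorem y5v1_rchk_13 : allR y5v1_rf 39106 8 (13 * 2 ^ 8) = true := by decide +kernel
theorem y5v1_rchk_14 : allR y5v1_rf 39106 8 (14 * 2 ^ 8) = true := by decide +kernel
theorem y5v1_rchk_15 : allR y5v1_rf 39106 8 (15 * 2 ^ 8) = true := by decide +kernel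
theorem y5v1_rchk_16 : allR y5v1_rf 39106 8 (16 * 2 ^ 8) = true := by decide +kernel
theorem y5v1_rchk_17 : allR y5v1_rf 39106 8 (17 * 2 ^ 8) = true := by decide +kernel
theorem y5v1_rchk_18 : allR y5v1_rf 39106 8 (18 * 2 ^ 8) = true := by decide +kernel
theorem y5v1_rchk_19 : allR y5v1_rf 39106 8 (19 * 2 ^ 8) = true := by decide +kernel

end Cfsg.Agent.H35
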