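import Cfsg.Agent.H35.Fi24T.Y5V1.RTab

set_option autoImplicit false
set_option linter.all false
set_option Elab.async false

namespace Cfsg.Agent.H35

theorem y5v1_rchk_20 : allR y5v1_rf 39106 8 (20 * 2 ^ 8) = true := by decide +kernel
theorem y5v1_rchk_21 : allR y5v1_rf 39106 8 (21 * 2 ^ 8) = true := by decide +kernel
theorem y5v1_rchk_22 : allR y5v1_rf 39106 8 (22 * 2 ^ 8) = true := by decide +kernel
theorem y5v1_rchk_23 : allR y5v1_rf 39106 8 (23 * 2 ^ 8) = true := by decide +kernel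
theorem y5v1_rchk_24 : allR y5v1_rf 39106 8 (24 * 2 ^ 8) = true := by decide +kernel
theorem y5v1_rchk_25 : allR y5v1_rf 39106 8 (25 * 2 ^ 8) = true := by decide +kernel
theorem y5v1_rchk_26 : allR y5v1_rf 39106 8 (26 * 2 ^ 8) = true := by decide +kernel
theorem y5v1_rchk_27 : allR y5v1_rf 39106 8 (27 * 2 ^ 8) = true := by decide +kernel
theorem y5v1_rchk_28 : allR y5v1_rf 39106 8 (28 * 2 ^ 8) = true := by decide +kernel
theorem y5v1_rchk_29 : allR y5v1_rf 39106 8 (29 * 2 ^ 8) = true := by decide +kernel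
theorem y5v1_rchk_30 : allR y5v1_rf 39106 8 (30 * 2 ^ 8) = true := by decide +kernel
theorem y5v1_rchk_31 : allR y5v1_rf 39106 8 (31 * 2 ^ 8) = true := by decide +kernel
theorem y5v1_rchk_32 : allR y5v1_rf 39106 8 (32 * 2 ^ 8) = true := by decide +kernel
theorem y5v1_rchk_33 : allR y5v1_rf 39106 8 (33 * 2 ^ 8) = true := by decide +kernel
theorem y5v1_rchk_34 : allR y5v1_rf 39106 8 (34 * 2 ^ 8) = true := by decide +kernel
theorem y5v1_rchk_35 : allR y5v1_rf 39106 8 (35 * 2 ^ 8) = true := by decide +kernel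
theorem y5v1_rchk_36 : allR y5v1_rf 39106 8 (36 * 2 ^ 8) = true := by decide +kernel
theorem y5v1_rchk_37 : allR y5v1_rf 39106 8 (37 * 2 ^ 8) = true := by decide +kernel
theorem y5v1_rchk_38 : allR y5v1_rf 39106 8 (38 * 2 ^ 8) = true := by decide +kernel
theorem y5v1_rchk_39 : allR y5v1_rf 39106 8 (39 * 2 ^ 8) = true := by decide +kernel

end Cfsg.Agent.H35
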