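import Cfsg.Agent.H35.Fi24T.Y5V1.RTab

set_option autoImplicit false
set_option linter.all false
set_option Elab.async false

namespace Cfsg.Agent.H35

theorem y5v1_rchk_40 : allR y5v1_rf 39106 8 (40 * 2 ^ 8) = true := by decide +kernel
theorem y5v1_rchk_41 : allR y5v1_rf 39106 8 (41 * 2 ^ 8) = true := by decide +kernel
theorem y5v1_rchk_42 : allR y5v1_rf 39106 8 (42 * 2 ^ 8) = true := by decide +kernel
theorem y5v1_rchk_43 : allR y5v1_rf 39106 8 (43 * 2 ^ 8) = true := by decide +kernel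
theorem y5v1_rchk_44 : allR y5v1_rf 39106 8 (44 * 2 ^ 8) = true := by decide +kernel
theorem y5v1_rchk_45 : allR y5v1_rf 39106 8 (45 * 2 ^ 8) = true := by decide +kernel
theorem y5v1_rchk_46 : allR y5v1_rf 39106 8 (46 * 2 ^ 8) = true := by decide +kernel
theorem y5v1_rchk_47 : allR y5v1_rf 39106 8 (47 * 2 ^ 8) = true := by decide +kernel
theorem y5v1_rchk_48 : allR y5v1_rf 39106 8 (48 * 2 ^ 8) = true := by decide +kernel
theorem y5v1_rchk_49 : allR y5v1_rf 39106 8 (49 * 2 ^ 8) = true := by decide +kernel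
theorem y5v1_rchk_50 : allR y5v1_rf 39106 8 (50 * 2 ^ 8) = true := by decide +kernel
theorem y5v1_rchk_51 : allR y5v1_rf 39106 8 (51 * 2 ^ 8) = true := by decide +kernel
theorem y5v1_rchk_52 : allR y5v1_rf 39106 8 (52 * 2 ^ 8) = true := by decide +kernel
theorem y5v1_rchk_53 : allR y5v1_rf 39106 8 (53 * 2 ^ 8) = true := by decide +kernel
theorem y5v1_rchk_54 : allR y5v1_rf 39106 8 (54 * 2 ^ 8) = true := by decide +kernel
theorem y5v1_rchk_55 : allR y5v1_rf 39106 8 (55 * 2 ^ 8) = true := by decide +kernel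
theorem y5v1_rchk_56 : allR y5v1_rf 39106 8 (56 * 2 ^ 8) = true := by decide +kernel
theorem y5v1_rchk_57 : allR y5v1_rf 39106 8 (57 * 2 ^ 8) = true := by decide +kernel
theorem y5v1_rchk_58 : allR y5v1_rf 39106 8 (58 * 2 ^ 8) = true := by decide +kernel
theorem y5v1_rchk_59 : allR y5v1_rf 39106 8 (59 * 2 ^ 8) = true := by decide +kernel

end Cfsg.Agent.H35
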