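import Cfsg.Agent.H35.Fi24T.Y5V1.RTab

set_option autoImplicit false
set_option linter.all false
set_option Elab.async false

namespace Cfsg.Agent.H35

theorem y5v1_rchk_60 : allR y5v1_rf 39106 8 (60 * 2 ^ 8) = true := by decide +kernel
theorem y5v1_rchk_61 : allR y5v1_rf 39106 8 (61 * 2 ^ 8) = true := by decide +kernel
theorem y5v1_rchk_62 : allR y5v1_rf 39106 8 (62 * 2 ^ 8) = true := by decide +kernel
theorem y5v1_rchk_63 : allR y5v1_rf 39106 8 (63 * 2 ^ 8) = true := by decide +kernel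
theorem y5v1_rchk_64 : allR y5v1_rf 39106 8 (64 * 2 ^ 8) = true := by decide +kernel
theorem y5v1_rchk_65 : allR y5v1_rf 39106 8 (65 * 2 ^ 8) = true := by decide +kernel
theorem y5v1_rchk_66 : allR y5v1_rf 39106 8 (66 * 2 ^ 8) = true := by decide +kernel
theorem y5v1_rchk_67 : allR y5v1_rf 39106 8 (67 * 2 ^ 8) = true := by decide +kernel
theorem y5v1_rchk_68 : allR y5v1_rf 39106 8 (68 * 2 ^ 8) = true := by decide +kernel
theorem y5v1_rchk_69 : allR y5v1_rf 39106 8 (69 * 2 ^ 8) = true := by decide +kernel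
theorem y5v1_rchk_70 : allR y5v1_rf 39106 8 (70 * 2 ^ 8) = true := by decide +kernel
theorem y5v1_rchk_71 : allR y5v1_rf 39106 8 (71 * 2 ^ 8) = true := by decide +kernel
theorem y5v1_rchk_72 : allR y5v1_rf 39106 8 (72 * 2 ^ 8) = true := by decide +kernel
theorem y5v1_rchk_73 : allR y5v1_rf 39106 8 (73 * 2 ^ 8) = true := by decide +kernel
theorem y5v1_rchk_74 : allR y5v1_rf 39106 8 (74 * 2 ^ 8) = true := by decide +kernel
theorem y5v1_rchk_75 : allR y5v1_rf 39106 8 (75 * 2 ^ 8) = true := by decide +kernel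
theorem y5v1_rchk_76 : allR y5v1_rf 39106 8 (76 * 2 ^ 8) = true := by decide +kernel
theorem y5v1_rchk_77 : allR y5v1_rf 39106 8 (77 * 2 ^ 8) = true := by decide +kernel
theorem y5v1_rchk_78 : allR y5v1_rf 39106 8 (78 * 2 ^ 8) = true := by decide +kernel
theorem y5v1_rchk_79 : allR y5v1_rf 39106 8 (79 * 2 ^ 8) = true := by decide +kernel

end Cfsg.Agent.H35
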