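import Cfsg.Agent.H35.Fi24T.Y5V1.RTab

set_option autoImplicit false
set_option linter.all false
set_option Elab.async false

namespace Cfsg.Agent.H35

theorem y5v1_rchk_100 : allR y5v1_rf 39106 8 (100 * 2 ^ 8) = true := by decide +kernel
theorem y5v1_rchk_101 : allR y5v1_rf 39106 8 (101 * 2 ^ 8) = true := by decide +kernel
theorem y5v1_rchk_102 : allR y5v1_rf 39106 8 (102 * 2 ^ 8) = true := by decide +kernel
theorem y5v1_rchk_103 : allR y5v1_rf 39106 8 (103 * 2 ^ 8) = true := by decide +kernel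
theorem y5v1_rchk_104 : allR y5v1_rf 39106 8 (104 * 2 ^ 8) = true := by decide +kernel
theorem y5v1_rchk_105 : allR y5v1_rf 39106 8 (105 * 2 ^ 8) = true := by decide +kernel
theorem y5v1_rchk_106 : allR y5v1_rf 39106 8 (106 * 2 ^ 8) = true := by decide +kernel
theorem y5v1_rchk_107 : allR y5v1_rf 39106 8 (107 * 2 ^ 8) = true := by decide +kernel
theorem y5v1_rchk_108 : allR y5v1_rf 39106 8 (108 * 2 ^ 8) = true := by decide +kernel
theorem y5v1_rchk_109 : allR y5v1_rf 39106 8 (109 * 2 ^ 8) = true := by decide +kernel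
theorem y5v1_rchk_110 : allR y5v1_rf 39106 8 (110 * 2 ^ 8) = true := by decide +kernel
theorem y5v1_rchk_111 : allR y5v1_rf 39106 8 (111 * 2 ^ 8) = true := by decide +kernel
theorem y5v1_rchk_112 : allR y5v1_rf 39106 8 (112 * 2 ^ 8) = true := by decide +kernel
theorem y5v1_rchk_113 : allR y5v1_rf 39106 8 (113 * 2 ^ 8) = true := by decide +kernel
theorem y5v1_rchk_114 : allR y5v1_rf 39106 8 (114 * 2 ^ 8) = true := by decide +kernel
theorem y5v1_rchk_115 : allR y5v1_rf 39106 8 (115 * 2 ^ 8) = true := by decide +kernel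
theorem y5v1_rchk_116 : allR y5v1_rf 39106 8 (116 * 2 ^ 8) = true := by decide +kernel
theorem y5v1_rchk_117 : allR y5v1_rf 39106 8 (117 * 2 ^ 8) = true := by decide +kernel
theorem y5v1_rchk_118 : allR y5v1_rf 39106 8 (118 * 2 ^ 8) = true := by decide +kernel
theorem y5v1_rchk_119 : allR y5v1_rf 39106 8 (119 * 2 ^ 8) = true := by decide +kernel

end Cfsg.Agent.H35
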