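import Cfsg.Agent.H35.Fi24T.Y5V1.RTab

set_option autoImplicit false
set_option linter.all false
set_option Elab.async false

namespace Cfsg.Agent.H35

theorem y5v1_rchk_120 : allR y5v1_rf 39106 8 (120 * 2 ^ 8) = true := by decide +kernel
theorem y5v1_rchk_121 : allR y5v1_rf 39106 8 (121 * 2 ^ 8) = true := by decide +kernel
theorem y5v1_rchk_122 : allR y5v1_rf 39106 8 (122 * 2 ^ 8) = true := by decide +kernel
theorem y5v1_rchk_123 : allR y5v1_rf 39106 8 (123 * 2 ^ 8) = true := by decide +kernel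
theorem y5v1_rchk_124 : allR y5v1_rf 39106 8 (124 * 2 ^ 8) = true := by decide +kernel
theorem y5v1_rchk_125 : allR y5v1_rf 39106 8 (125 * 2 ^ 8) = true := by decide +kernel
theorem y5v1_rchk_126 : allR y5v1_rf 39106 8 (126 * 2 ^ 8) = true := by decide +kernel
theorem y5v1_rchk_127 : allR y5v1_rf 39106 8 (127 * 2 ^ 8) = true := by decide +kernel
theorem y5v1_rchk_128 : allR y5v1_rf 39106 8 (128 * 2 ^ 8) = true := by decide +kernel
theorem y5v1_rchk_129 : allR y5v1_rf 39106 8 (129 * 2 ^ 8) = true := by decide +kernel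
theorem y5v1_rchk_130 : allR y5v1_rf 39106 8 (130 * 2 ^ 8) = true := by decide +kernel
theorem y5v1_rchk_131 : allR y5v1_rf 39106 8 (131 * 2 ^ 8) = true := by decide +kernel
theorem y5v1_rchk_132 : allR y5v1_rf 39106 8 (132 * 2 ^ 8) = true := by decide +kernel
theorem y5v1_rchk_133 : allR y5v1_rf 39106 8 (133 * 2 ^ 8) = true := by decide +kernel
theorem y5v1_rchk_134 : allR y5v1_rf 39106 8 (134 * 2 ^ 8) = true := by decide +kernel
theorem y5v1_rchk_135 : allR y5v1_rf 39106 8 (135 * 2 ^ 8) = true := by decide +kernel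
theorem y5v1_rchk_136 : allR y5v1_rf 39106 8 (136 * 2 ^ 8) = true := by decide +kernel
theorem y5v1_rchk_137 : allR y5v1_rf 39106 8 (137 * 2 ^ 8) = true := by decide +kernel
theorem y5v1_rchk_138 : allR y5v1_rf 39106 8 (138 * 2 ^ 8) = true := by decide +kernel
theorem y5v1_rchk_139 : allR y5v1_rf 39106 8 (139 * 2 ^ 8) = true := by decide +kernel

end Cfsg.Agent.H35
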