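import Cfsg.Agent.H35.Fi24T.Y5V1.RTab

set_option autoImplicit false
set_option linter.all false
set_option Elab.async false

namespace Cfsg.Agent.H35

theorem y5v1_rchk_140 : allR y5v1_rf 39106 8 (140 * 2 ^ 8) = true := by decide +kernel
theorem y5v1_rchk_141 : allR y5v1_rf 39106 8 (141 * 2 ^ 8) = true := by decide +kernel
theorem y5v1_rchk_142 : allR y5v1_rf 39106 8 (142 * 2 ^ 8) = true := by decide +kernel
theorem y5v1_rchk_143 : allR y5v1_rf 39106 8 (143 * 2 ^ 8) = true := by decide +kernel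
theorem y5v1_rchk_144 : allR y5v1_rf 39106 8 (144 * 2 ^ 8) = true := by decide +kernel
theorem y5v1_rchk_145 : allR y5v1_rf 39106 8 (145 * 2 ^ 8) = true := by decide +kernel
theorem y5v1_rchk_146 : allR y5v1_rf 39106 8 (146 * 2 ^ 8) = true := by decide +kernel
theorem y5v1_rchk_147 : allR y5v1_rf 39106 8 (147 * 2 ^ 8) = true := by decide +kernel
theorem y5v1_rchk_148 : allR y5v1_rf 39106 8 (148 * 2 ^ 8) = true := by decide +kernel
theorem y5v1_rchk_149 : allR y5v1_rf 39106 8 (149 * 2 ^ 8) = true := by decide +kernel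
theorem y5v1_rchk_150 : allR y5v1_rf 39106 8 (150 * 2 ^ 8) = true := by decide +kernel
theorem y5v1_rchk_151 : allR y5v1_rf 39106 8 (151 * 2 ^ 8) = true := by decide +kernel
theorem y5v1_rchk_152 : allR y5v1_rf 39106 8 (152 * 2 ^ 8) = true := by decide +kernel

end Cfsg.Agent.H35
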